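import Cfsg.Agent.Lib.InvCentralizers.ChevInvolution.DataF4
import Cfsg.Agent.Lib.InvCentralizers.ChevInvolution.Classes

/-!
The two classes of involutions of the Chevalley group of type F₄ over a field of odd order.
-/

set_option autoImplicit false
set_option maxRecDepth 100000

namespace CfsgLib.InvCentralizers.ChevInvolution.F4

open Cfsg.Lie CfsgLib.Chevalley

theorem full : Full chevF4 auxF4 := ⟨⟨cert_F4, posF4, by simp⟩, extraF4⟩

theorem invData : InvData chevF4 auxF4 := by
  refine ⟨?_, ?_⟩ <;> decide +kernel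

theorem two_lt {F : Type*} [Fintype F] [Nontrivial F] (hodd : Odd (Fintype.card F)) :
    2 < Fintype.card F := by
  have := Fintype.one_lt_card (α := F)
  rcases hodd with ⟨k, hk⟩
  omega

/-- Two classes of involutions, with the orders of their centralizers. -/
theorem involution_classes {F : Type*} [Field F] [Fintype F] (hodd : Odd (Fintype.card F)) :
    ∃ s t : chevF4.group F, orderOf s = 2 ∧ orderOf t = 2 ∧ ¬ IsConj s t ∧
      (∀ u : chevF4.group F, orderOf u = 2 → IsConj u s ∨ IsConj u t) ∧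
      Nat.card (Subgroup.centralizer ({s} : Set (chevF4.group F))) =
        Fintype.card F ^ 16 * (Fintype.card F ^ 2 - 1) * (Fintype.card F ^ 4 - 1) *
          (Fintype.card F ^ 6 - 1) * (Fintype.card F ^ 8 - 1) ∧
      Nat.card (Subgroup.centralizer ({t} : Set (chevF4.group F))) =
        Fintype.card F ^ 10 * (Fintype.card F ^ 2 - 1) ^ 2 * (Fintype.card F ^ 4 - 1) *
          (Fintype.card F ^ 6 - 1) := by
  have hd : Nat.card (chevF4.diagonalSubgroup F) = (Fintype.card F - 1) ^ chevF4.rank :=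
    (one_mul _).symm.trans card_diagonalF4
  refine two_classes hodd full invData hd cover ⟨0, by decide⟩ ⟨2, by decide⟩ rfl rfl ?_ ?_ ?_
  · rw [card_centralizer_eq hodd full reflTabF4_ok maskS_ok rfl expsLenS levelsS_ok levelsF4_ok
      orbitS_ok sizeS poincareS hd, posLenS]
    simp [mul_assoc]
  · rw [card_centralizer_eq hodd full reflTabF4_ok maskT_ok rfl expsLenT levelsT_ok levelsF4_ok
      orbitT_ok sizeT poincareT hd, posLenT]
    simp [mul_assoc, pow_two]
  · set q := Fintype.card F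
    have hq : 1 < q := (Nat.lt_succ_self 1).trans (two_lt hodd)
    have h2 : 0 < q ^ 2 - 1 := Nat.sub_pos_of_lt (Nat.one_lt_pow (by norm_num) hq)
    have h4 : 0 < q ^ 4 - 1 := Nat.sub_pos_of_lt (Nat.one_lt_pow (by norm_num) hq)
    have h6 : 0 < q ^ 6 - 1 := Nat.sub_pos_of_lt (Nat.one_lt_pow (by norm_num) hq)
    have h1 : q ^ 10 < q ^ 16 := Nat.pow_lt_pow_right hq (by norm_num)
    have h3 : q ^ 2 - 1 < q ^ 8 - 1 := by
      have := Nat.pow_lt_pow_right hq (show 2 < 8 by norm_num)
      have := Nat.one_le_pow 2 q (by omega)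
      omega
    refine ne_of_gt ?_
    calc q ^ 10 * (q ^ 2 - 1) ^ 2 * (q ^ 4 - 1) * (q ^ 6 - 1)
        = (q ^ 2 - 1) * (q ^ 4 - 1) * (q ^ 6 - 1) * (q ^ 10 * (q ^ 2 - 1)) := by ring
      _ < (q ^ 2 - 1) * (q ^ 4 - 1) * (q ^ 6 - 1) * (q ^ 16 * (q ^ 8 - 1)) :=
        Nat.mul_lt_mul_of_pos_left (Nat.mul_lt_mul'' h1 h3) (by positivity)
      _ = _ := by ring

end CfsgLib.InvCentralizers.ChevInvolution.F4
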